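-- helper13: project QSIM (S5981), package [I1]: for an odd prime `r ∣ q - 1`, outside the
-- exceptions, a diagonal element of order `r` modulo scalars that is not conjugate into the
-- similarity group (given the eigenvalue symmetry [RANK]).
import Mathlib
import Cfsg.Prelude.Def_GeometricClasses
import Cfsg.Agent.Lib.Helper58.QSim.Defs

set_option autoImplicit false
open scoped MatrixGroups Matrix

namespace Cfsg.Agent.Lib.Helper13.QSim

open Cfsg.Agent.Lib.Helper58.QSim

universe u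

variable {F : Type u} [Field F]

/-- the diagonal element of `GL_n(F)` with non-zero entries `d`. -/
def dgl {n : ℕ} (d : Fin n → F) (hd : ∀ j, d j ≠ 0) : GL (Fin n) F :=
  ⟨Matrix.diagonal d, Matrix.diagonal (fun j => (d j)⁻¹),
    by
      rw [Matrix.diagonal_mul_diagonal]
      have : (fun i => d i * (d i)⁻¹) = fun _ => (1 : F) := funext fun i => mul_inv_cancel₀ (hd i)
      rw [this, Matrix.diagonal_one],
    by
      rw [Matrix.diagonal_mul_diagonal]
      have : (fun i => (d i)⁻¹ * d i) = fun _ => (1 : F) := funext fun i => inv_mul_cancel₀ (hd i)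
      rw [this, Matrix.diagonal_one]⟩

theorem dgl_val {n : ℕ} (d : Fin n → F) (hd : ∀ j, d j ≠ 0) :
    ((dgl d hd : GL (Fin n) F) : Matrix (Fin n) (Fin n) F) = Matrix.diagonal d := rfl

/-- the counting core: a dominant eigenvalue `e` forces `μ = e²`, and then an eigenvalue `a`
with `e² / a` not an eigenvalue is impossible. -/
theorem diag_count_bad [DecidableEq F] {n : ℕ} (d : Fin n → F) (μ e a : F) (he : e ≠ 0)
    (ha : a ≠ 0)
    (hrk : ∀ b : F, b ≠ 0 → (Finset.univ.filter (fun j => d j ≠ b)).card =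
      (Finset.univ.filter (fun j => d j ≠ μ / b)).card)
    (hdom : 2 * (Finset.univ.filter (fun j => d j ≠ e)).card < n)
    (hj : ∃ j, d j = a) (hnot : ∀ j, d j ≠ e * e / a) : False := by
  have hμ : μ = e * e := by
    by_contra hne
    have h1 : μ / e ≠ e := by
      intro h
      apply hne
      have h' : μ = μ / e * e := (div_mul_cancel₀ μ he).symm
      rw [h', h]
    have hsub : Finset.univ.filter (fun j => d j = e) ⊆
        Finset.univ.filter (fun j => d j ≠ μ / e) := by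
      intro j hj'
      rw [Finset.mem_filter] at hj' ⊢
      refine ⟨Finset.mem_univ _, ?_⟩
      rw [hj'.2]
      exact fun h => h1 h.symm
    have hc := Finset.card_le_card hsub
    have htot : (Finset.univ.filter (fun j => d j = e)).card +
        (Finset.univ.filter (fun j => d j ≠ e)).card = n := by
      have h0 := Finset.card_filter_add_card_filter_not (s := (Finset.univ : Finset (Fin n)))
        (fun j => d j = e)
      rw [Finset.card_univ, Fintype.card_fin] at h0
      exact h0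
    have := hrk e he
    omega
  obtain ⟨j₁, hj₁⟩ := hj
  have h1 : (Finset.univ.filter (fun j => d j ≠ a)).card < n := by
    have hsub : Finset.univ.filter (fun j => d j ≠ a) ⊆ Finset.univ.erase j₁ := by
      intro j hj'
      rw [Finset.mem_filter] at hj'
      rw [Finset.mem_erase]
      refine ⟨?_, Finset.mem_univ _⟩
      intro h
      rw [h] at hj'
      exact hj'.2 hj₁
    have hc := Finset.card_le_card hsub
    rw [Finset.card_erase_of_mem (Finset.mem_univ _), Finset.card_univ, Fintype.card_fin] at hc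
    have : 0 < n := Fin.pos j₁
    omega
  have h2 : (Finset.univ.filter (fun j => d j ≠ μ / a)).card = n := by
    rw [Finset.filter_true_of_mem, Finset.card_univ, Fintype.card_fin]
    intro j _
    rw [hμ]
    exact hnot j
  have := hrk a ha
  omega

theorem sh_dgl_rank [DecidableEq F] {n : ℕ} (d : Fin n → F) (hd : ∀ j, d j ≠ 0) (b : F) :
    (sh (dgl d hd) b).rank = (Finset.univ.filter (fun j => d j ≠ b)).card := by
  have h1 : sh (dgl d hd) b = Matrix.diagonal (fun j => d j - b) := by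
    show Matrix.diagonal d - b • (1 : Matrix (Fin n) (Fin n) F) = _
    rw [Matrix.smul_one_eq_diagonal, Matrix.diagonal_sub]
  rw [h1, Matrix.rank_diagonal, Fintype.card_subtype]
  congr 1
  ext j
  simp [sub_ne_zero]

/-- a diagonal element with a dominant eigenvalue `e` and an eigenvalue `a` such that `e²/a` is
not an eigenvalue is not conjugate into the similarity group. -/
theorem dgl_not_conj (hRank : PkgRank.{u}) {n : ℕ} (Q : (Fin n → F) → F)
    (hQ : Cfsg.Geo.IsNondegenerateQuadraticForm Q) (d : Fin n → F) (hd : ∀ j, d j ≠ 0)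
    (e a : F) (he : e ≠ 0) (ha : a ≠ 0)
    (hdom : ∀ [DecidableEq F], 2 * (Finset.univ.filter (fun j => d j ≠ e)).card < n)
    (hj : ∃ j, d j = a) (hnot : ∀ j, d j ≠ e * e / a) : ¬ Conj Q (dgl d hd) := by
  classical
  intro hc
  obtain ⟨μ, _, hrk⟩ := hRank F n Q (dgl d hd) hQ hc
  refine diag_count_bad d μ e a he ha ?_ hdom hj hnot
  intro b hb
  have := hrk b hb
  rw [sh_dgl_rank, sh_dgl_rank] at this
  exact this

/-- `Elt` for a diagonal element. -/
theorem dgl_elt {n r : ℕ} (d : Fin n → F) (hd : ∀ j, d j ≠ 0) (hdet : ∏ j, d j = 1) (z : F)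
    (hz : ∀ j, d j ^ r = z) (hns : ∃ j k, d j ≠ d k) : Elt n F r (dgl d hd) := by
  refine ⟨?_, ⟨z, ?_⟩, ?_⟩
  · show Matrix.GeneralLinearGroup.det (dgl d hd) = 1
    apply Units.ext
    rw [Matrix.GeneralLinearGroup.val_det_apply, dgl_val, Matrix.det_diagonal, hdet, Units.val_one]
  · rw [Units.val_pow_eq_pow_val, dgl_val, Matrix.diagonal_pow, Matrix.smul_one_eq_diagonal]
    congr 1
    funext j
    exact hz j
  · intro w hw
    rw [dgl_val, Matrix.smul_one_eq_diagonal] at hw
    have h := Matrix.diagonal_injective hw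
    obtain ⟨j, k, hjk⟩ := hns
    apply hjk
    rw [congrFun h j, congrFun h k]

/-- pattern `diag(c, ω, ..., ω)`, `c = ω^{-(n-1)}`. -/
theorem patX (hRank : PkgRank.{u}) {m r : ℕ} (hm : 2 ≤ m) (Q : (Fin (m + 1) → F) → F)
    (hQ : Cfsg.Geo.IsNondegenerateQuadraticForm Q) (ω : F) (hω : ω ≠ 0)
    (h1 : ω ^ (r * (m + 1)) = 1) (h2 : ω ^ (2 * (m + 1)) ≠ 1) :
    ∃ x : GL (Fin (m + 1)) F, Elt (m + 1) F r x ∧ ¬ Conj Q x := by
  have hm0 : ω ^ m ≠ 0 := pow_ne_zero _ hω
  have hc0 : (ω ^ m)⁻¹ ≠ 0 := inv_ne_zero hm0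
  have e1 : (ω ^ m)⁻¹ * ω ^ m = 1 := inv_mul_cancel₀ hm0
  have hcω : (ω ^ m)⁻¹ ≠ ω := by
    intro h
    apply h2
    have h3 : ω ^ (m + 1) = 1 := by
      rw [pow_succ]
      nth_rewrite 2 [← h]
      exact mul_inv_cancel₀ hm0
    rw [mul_comm, pow_mul, h3, one_pow]
  have hcc : (ω ^ m)⁻¹ * (ω ^ m)⁻¹ ≠ ω * ω := by
    intro h
    apply h2
    calc ω ^ (2 * (m + 1)) = (ω * ω) * (ω ^ m * ω ^ m) := by ring
      _ = ((ω ^ m)⁻¹ * (ω ^ m)⁻¹) * (ω ^ m * ω ^ m) := by rw [h]
      _ = ((ω ^ m)⁻¹ * ω ^ m) * ((ω ^ m)⁻¹ * ω ^ m) := by ring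
      _ = 1 := by rw [e1, one_mul]
  let d : Fin (m + 1) → F := Fin.cons ((ω ^ m)⁻¹) (fun _ => ω)
  have hd0 : d 0 = (ω ^ m)⁻¹ := rfl
  have hds : ∀ i : Fin m, d i.succ = ω := fun i => rfl
  have hd : ∀ j, d j ≠ 0 := by
    intro j
    refine Fin.cases ?_ (fun i => ?_) j
    · rw [hd0]; exact hc0
    · rw [hds]; exact hω
  refine ⟨dgl d hd, dgl_elt d hd ?_ (ω ^ r) ?_ ?_,
    dgl_not_conj hRank Q hQ d hd ω ((ω ^ m)⁻¹) hω hc0 ?_ ⟨0, hd0⟩ ?_⟩
  · rw [Fin.prod_univ_succ, hd0]
    simp only [hds, Finset.prod_const, Finset.card_univ, Fintype.card_fin]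
    exact e1
  · intro j
    refine Fin.cases ?_ (fun i => ?_) j
    · rw [hd0]
      have e2 : ω ^ r * (ω ^ m) ^ r = 1 := by
        rw [← pow_mul, ← pow_add]
        have : r + m * r = r * (m + 1) := by ring
        rw [this]
        exact h1
      calc ((ω ^ m)⁻¹) ^ r = ((ω ^ m)⁻¹) ^ r * (ω ^ r * (ω ^ m) ^ r) := by rw [e2, mul_one]
        _ = ((ω ^ m)⁻¹ * ω ^ m) ^ r * ω ^ r := by rw [mul_pow]; ring
        _ = ω ^ r := by rw [e1, one_pow, one_mul]
    · rw [hds]
  · exact ⟨0, (⟨0, by omega⟩ : Fin m).succ, by rw [hd0, hds]; exact hcω⟩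
  · intro _
    have hsub : Finset.univ.filter (fun j => d j ≠ ω) ⊆ {0} := by
      intro j
      refine Fin.cases ?_ (fun i => ?_) j
      · intro _
        exact Finset.mem_singleton_self _
      · intro h
        rw [Finset.mem_filter] at h
        exact absurd (hds i) h.2
    have := Finset.card_le_card hsub
    rw [Finset.card_singleton] at this
    omega
  · intro j
    refine Fin.cases ?_ (fun i => ?_) j
    · rw [hd0]
      intro h
      rw [eq_div_iff hc0] at h
      exact hcc h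
    · rw [hds]
      intro h
      rw [eq_div_iff hc0] at h
      exact hcω (mul_left_cancel₀ hω h)

/-- pattern `diag(1, 1, ζ³, ζ, ..., ζ)`. -/
theorem patP3 (hRank : PkgRank.{u}) {m r : ℕ} (hm : 4 ≤ m) (Q : (Fin (m + 3) → F) → F)
    (hQ : Cfsg.Geo.IsNondegenerateQuadraticForm Q) (ζ : F) (hζ : ζ ≠ 0) (hr : ζ ^ r = 1)
    (h1 : ζ ≠ 1) (h2 : ζ * ζ ≠ 1) (hn : ζ ^ (m + 3) = 1) :
    ∃ x : GL (Fin (m + 3)) F, Elt (m + 3) F r x ∧ ¬ Conj Q x := by
  let d : Fin (m + 3) → F := Fin.cons 1 (Fin.cons 1 (Fin.cons (ζ ^ 3) (fun _ => ζ)))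
  have hd0 : d 0 = 1 := rfl
  have hd1 : d (Fin.succ 0) = 1 := rfl
  have hd2 : d (Fin.succ (Fin.succ 0)) = ζ ^ 3 := rfl
  have hds : ∀ i : Fin m, d i.succ.succ.succ = ζ := fun i => rfl
  have hall : ∀ P : Fin (m + 3) → Prop, P 0 → P (Fin.succ 0) → P (Fin.succ (Fin.succ 0)) →
      (∀ i : Fin m, P i.succ.succ.succ) → ∀ j, P j := by
    intro P p0 p1 p2 p3 j
    refine Fin.cases p0 (fun j => ?_) j
    refine Fin.cases p1 (fun j => ?_) j
    refine Fin.cases p2 (fun j => ?_) j
    exact p3 j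
  have hd : ∀ j, d j ≠ 0 := by
    apply hall
    · rw [hd0]; exact one_ne_zero
    · rw [hd1]; exact one_ne_zero
    · rw [hd2]; exact pow_ne_zero _ hζ
    · intro i; rw [hds]; exact hζ
  refine ⟨dgl d hd, dgl_elt d hd ?_ 1 ?_ ?_,
    dgl_not_conj hRank Q hQ d hd ζ 1 hζ one_ne_zero ?_ ⟨0, hd0⟩ ?_⟩
  · rw [Fin.prod_univ_succ, Fin.prod_univ_succ, Fin.prod_univ_succ, hd0, hd1, hd2]
    simp only [hds, Finset.prod_const, Finset.card_univ, Fintype.card_fin]
    rw [one_mul, one_mul, ← pow_add, add_comm]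
    exact hn
  · apply hall
    · rw [hd0, one_pow]
    · rw [hd1, one_pow]
    · rw [hd2, ← pow_mul, mul_comm, pow_mul, hr, one_pow]
    · intro i; rw [hds]; exact hr
  · exact ⟨0, (⟨0, by omega⟩ : Fin m).succ.succ.succ, by rw [hd0, hds]; exact fun h => h1 h.symm⟩
  · intro _
    have hsub : Finset.univ.filter (fun j => d j ≠ ζ) ⊆
        {0, Fin.succ 0, Fin.succ (Fin.succ 0)} := by
      apply hall
      · intro _
        exact Finset.mem_insert_self _ _
      · intro _
        exact Finset.mem_insert_of_mem (Finset.mem_insert_self _ _)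
      · intro _
        exact Finset.mem_insert_of_mem (Finset.mem_insert_of_mem (Finset.mem_singleton_self _))
      · intro i h
        rw [Finset.mem_filter] at h
        exact absurd (hds i) h.2
    have h3 := Finset.card_le_card hsub
    have h4 := Finset.card_le_three (a := (0 : Fin (m + 3))) (b := Fin.succ 0)
      (c := Fin.succ (Fin.succ 0))
    omega
  · rw [div_one]
    apply hall
    · rw [hd0]; exact fun h => h2 h.symm
    · rw [hd1]; exact fun h => h2 h.symm
    · rw [hd2]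
      intro h
      apply h1
      have h' : ζ * ζ * ζ = ζ * ζ * 1 := by
        rw [mul_one]
        calc ζ * ζ * ζ = ζ ^ 3 := by ring
          _ = ζ * ζ := h
      exact mul_left_cancel₀ (mul_ne_zero hζ hζ) h'
    · intro i
      rw [hds]
      intro h
      apply h1
      have h' : ζ * 1 = ζ * ζ := by rw [mul_one]; exact h
      exact (mul_left_cancel₀ hζ h').symm

/-- [I1] -/
theorem pkgI1_of (hRank : PkgRank.{u}) : PkgI1.{u} := by
  intro F _ _ n r Q hr hr2 _ hn hdvd h63 hexc hQ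
  classical
  have hq1 : 0 < Fintype.card F - 1 := by
    have := Fintype.one_lt_card (α := F)
    omega
  have hex : ∀ N : ℕ, 0 < N → N ∣ Fintype.card F - 1 →
      ∃ ω : F, ω ≠ 0 ∧ ∀ k : ℕ, ω ^ k = 1 ↔ N ∣ k := by
    intro N hN hNd
    obtain ⟨g, hg⟩ := IsCyclic.exists_generator (α := Fˣ)
    have hog : orderOf g = Fintype.card F - 1 := by
      rw [orderOf_eq_card_of_forall_mem_zpowers hg, Nat.card_eq_fintype_card, Fintype.card_units]
    obtain ⟨t, ht⟩ := hNd
    have ht0 : t ≠ 0 := by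
      rintro rfl
      omega
    have hou : orderOf (g ^ t) = N := by
      rw [orderOf_pow_of_dvd ht0 (by rw [hog, ht]; exact dvd_mul_left t N), hog, ht,
        Nat.mul_div_cancel _ (Nat.pos_of_ne_zero ht0)]
    refine ⟨((g ^ t : Fˣ) : F), Units.ne_zero _, fun k => ?_⟩
    rw [← hou, orderOf_dvd_iff_pow_eq_one, ← Units.val_pow_eq_pow_val, Units.ext_iff,
      Units.val_one]
  by_cases hrn : r ∣ n
  · by_cases h7 : 7 ≤ n
    · obtain ⟨ζ, hζ0, hζ⟩ := hex r hr.pos hdvd
      obtain ⟨m, rfl⟩ : ∃ m, n = m + 3 := ⟨n - 3, by omega⟩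
      have hζr : ζ ^ r = 1 := (hζ r).2 dvd_rfl
      have hζ1 : ζ ≠ 1 := by
        intro h
        have := (hζ 1).1 (by rw [pow_one]; exact h)
        exact hr.one_lt.ne' (Nat.dvd_one.1 this)
      have hζ2 : ζ * ζ ≠ 1 := by
        intro h
        have := (hζ 2).1 (by rw [pow_two]; exact h)
        exact hr2 ((Nat.prime_dvd_prime_iff_eq hr Nat.prime_two).1 this)
      exact patP3 hRank (by omega) Q hQ ζ hζ0 hζr hζ1 hζ2 ((hζ _).2 hrn)
    · have hnr : n = r ∧ (r = 3 ∨ r = 5) := by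
        have hle : n ≤ 6 := by omega
        interval_cases n
        · have := (Nat.prime_dvd_prime_iff_eq hr Nat.prime_three).1 hrn
          exact ⟨this.symm, Or.inl this⟩
        · exfalso
          have : r ∣ 2 := hr.dvd_of_dvd_pow (show r ∣ 2 ^ 2 from hrn)
          exact hr2 ((Nat.prime_dvd_prime_iff_eq hr Nat.prime_two).1 this)
        · have := (Nat.prime_dvd_prime_iff_eq hr Nat.prime_five).1 hrn
          exact ⟨this.symm, Or.inr this⟩
        · exfalso
          have h6 : r ∣ 2 * 3 := hrn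
          rcases (Nat.Prime.dvd_mul hr).1 h6 with h | h
          · exact hr2 ((Nat.prime_dvd_prime_iff_eq hr Nat.prime_two).1 h)
          · exact h63 ⟨rfl, (Nat.prime_dvd_prime_iff_eq hr Nat.prime_three).1 h⟩
      obtain ⟨hnr, hr35⟩ := hnr
      have : Fact r.Prime := ⟨hr⟩
      have hv : padicValNat r (Fintype.card F - 1) ≠ 1 := fun h => hexc ⟨hr35, hnr, h⟩
      have hv1 : 1 ≤ padicValNat r (Fintype.card F - 1) :=
        one_le_padicValNat_of_dvd (by omega) hdvd
      have hv2 : r ^ 2 ∣ Fintype.card F - 1 := by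
        have : 2 ≤ padicValNat r (Fintype.card F - 1) := by omega
        exact (pow_dvd_pow r this).trans pow_padicValNat_dvd
      obtain ⟨lam, hl0, hl⟩ := hex (r ^ 2) (pow_pos hr.pos 2) hv2
      obtain ⟨m, rfl⟩ : ∃ m, n = m + 1 := ⟨n - 1, by omega⟩
      refine patX hRank (by omega) Q hQ lam hl0 ((hl _).2 ?_) (fun h => ?_)
      · rw [hnr, pow_two]
      · have h3 := (hl _).1 h
        rw [hnr, pow_two] at h3
        have : r ∣ 2 := Nat.dvd_of_mul_dvd_mul_right hr.pos h3
        exact hr2 ((Nat.prime_dvd_prime_iff_eq hr Nat.prime_two).1 this)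
  · obtain ⟨ζ, hζ0, hζ⟩ := hex r hr.pos hdvd
    obtain ⟨m, rfl⟩ : ∃ m, n = m + 1 := ⟨n - 1, by omega⟩
    refine patX hRank (by omega) Q hQ ζ hζ0 ((hζ _).2 (dvd_mul_right r _)) (fun h => ?_)
    have h3 := (hζ _).1 h
    rcases (Nat.Prime.dvd_mul hr).1 h3 with h' | h'
    · exact hr2 ((Nat.prime_dvd_prime_iff_eq hr Nat.prime_two).1 h')
    · exact hrn h'

end Cfsg.Agent.Lib.Helper13.QSim
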